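import Mathlib
import Cfsg.Agent.Lib.Helper58.QSim.Defs

/-!
# QSim package [RANK]

An element conjugate to a similarity of a nondegenerate quadratic form with multiplier `μ`
has `rank (x - a) = rank (x - μ / a)` for every `a ≠ 0`.
-/

set_option autoImplicit false
open scoped MatrixGroups Matrix

namespace Cfsg.Agent.Lib.Helper94.QSim

open Cfsg.Agent.Lib.Helper58.QSim

universe u

section
variable {F : Type u} [Field F] {n : ℕ}

/-- The polar form as a bilinear map. -/
noncomputable def polarBil {Q : (Fin n → F) → F}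
    (hB : Cfsg.Geo.IsBilinearForm (QuadraticMap.polar Q)) :
    (Fin n → F) →ₗ[F] (Fin n → F) →ₗ[F] F :=
  LinearMap.mk₂ F (QuadraticMap.polar Q) hB.add_left hB.smul_left hB.add_right hB.smul_right

/-- Gram matrix of the polar form. -/
noncomputable def gramMat {Q : (Fin n → F) → F}
    (hB : Cfsg.Geo.IsBilinearForm (QuadraticMap.polar Q)) : Matrix (Fin n) (Fin n) F :=
  LinearMap.toMatrix₂' F (polarBil hB)

theorem polar_eq_gramMat {Q : (Fin n → F) → F}
    (hB : Cfsg.Geo.IsBilinearForm (QuadraticMap.polar Q)) (u v : Fin n → F) :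
    QuadraticMap.polar Q u v = u ⬝ᵥ (gramMat hB) *ᵥ v := by
  have h := Matrix.toLinearMap₂'_toMatrix' (R := F) (polarBil hB)
  have h2 : Matrix.toLinearMap₂' F (gramMat hB) u v = polarBil hB u v := by
    rw [gramMat, h]
  rw [Matrix.toLinearMap₂'_apply'] at h2
  rw [h2]
  rfl

theorem gramMat_det_isUnit {Q : (Fin n → F) → F}
    (hQ : Cfsg.Geo.IsNondegenerateQuadraticForm Q) :
    IsUnit (gramMat hQ.polar_bilinear).det := by
  rw [isUnit_iff_ne_zero]
  intro h0
  obtain ⟨v, hv, hv0⟩ := Matrix.exists_mulVec_eq_zero_iff.mpr h0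
  obtain ⟨⟨x, hx⟩, -⟩ := hQ.nondegenerate v hv
  apply hx
  rw [polar_eq_gramMat hQ.polar_bilinear, hv0, dotProduct_zero]

theorem polar_sim {Q : (Fin n → F) → F} {y : Matrix (Fin n) (Fin n) F} {c : F}
    (hc : ∀ v, Q (y *ᵥ v) = c * Q v) (u v : Fin n → F) :
    QuadraticMap.polar Q (y *ᵥ u) (y *ᵥ v) = c * QuadraticMap.polar Q u v := by
  unfold QuadraticMap.polar
  rw [← Matrix.mulVec_add, hc, hc, hc]
  ring

theorem gramMat_sim {Q : (Fin n → F) → F}
    (hB : Cfsg.Geo.IsBilinearForm (QuadraticMap.polar Q)) {y : Matrix (Fin n) (Fin n) F} {c : F}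
    (hc : ∀ v, Q (y *ᵥ v) = c * Q v) :
    yᵀ * gramMat hB * y = c • gramMat hB := by
  apply (Matrix.toLinearMap₂' F (S₁ := F) (S₂ := F) (n := Fin n) (m := Fin n) (N₂ := F)).injective
  refine LinearMap.ext fun u => LinearMap.ext fun v => ?_
  rw [Matrix.toLinearMap₂'_apply', Matrix.toLinearMap₂'_apply']
  rw [← Matrix.mulVec_mulVec, ← Matrix.mulVec_mulVec, Matrix.dotProduct_mulVec,
    Matrix.vecMul_transpose, ← polar_eq_gramMat hB, polar_sim hc, polar_eq_gramMat hB,
    Matrix.smul_mulVec, dotProduct_smul, smul_eq_mul]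

theorem rank_sim_aux {G y : Matrix (Fin n) (Fin n) F} {c a : F} (hG : IsUnit G.det)
    (hy : IsUnit y.det) (ha : a ≠ 0) (h : yᵀ * G * y = c • G) :
    (y - a • (1 : Matrix (Fin n) (Fin n) F)).rank
      = (y - (c / a) • (1 : Matrix (Fin n) (Fin n) F)).rank := by
  have key : (y - a • (1 : Matrix (Fin n) (Fin n) F))ᵀ * (G * y)
      = ((-a) • G) * (y - (c / a) • (1 : Matrix (Fin n) (Fin n) F)) := by
    have e : ((-a) • G) * (y - (c / a) • (1 : Matrix (Fin n) (Fin n) F))
        = c • G - a • (G * y) := by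
      rw [Matrix.mul_sub, Matrix.mul_smul, Matrix.mul_one, Matrix.smul_mul, smul_smul,
        show c / a * -a = -c by field_simp]
      simp only [neg_smul]
      abel
    rw [e, Matrix.transpose_sub, Matrix.transpose_smul, Matrix.transpose_one, Matrix.sub_mul,
      ← Matrix.mul_assoc, h, Matrix.smul_mul, Matrix.one_mul]
  have h1 : ((y - a • (1 : Matrix (Fin n) (Fin n) F))ᵀ * (G * y)).rank
      = (y - a • (1 : Matrix (Fin n) (Fin n) F)).rank := by
    rw [Matrix.rank_mul_eq_left_of_isUnit_det _ _ (by rw [Matrix.det_mul]; exact hG.mul hy),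
      Matrix.rank_transpose]
  have h2 : (((-a) • G) * (y - (c / a) • (1 : Matrix (Fin n) (Fin n) F))).rank
      = (y - (c / a) • (1 : Matrix (Fin n) (Fin n) F)).rank := by
    apply Matrix.rank_mul_eq_right_of_isUnit_det
    rw [Matrix.det_smul]
    exact (IsUnit.pow _ (neg_ne_zero.mpr ha).isUnit).mul hG
  rw [← h1, key, h2]

theorem sh_conj (x g : GL (Fin n) F) (a : F) :
    sh (g⁻¹ * x * g) a
      = ((g⁻¹ : GL (Fin n) F) : Matrix (Fin n) (Fin n) F) * sh x a
          * (g : Matrix (Fin n) (Fin n) F) := by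
  unfold sh
  rw [Units.val_mul, Units.val_mul, Matrix.mul_sub, Matrix.sub_mul, Matrix.mul_smul,
    Matrix.mul_one, Matrix.smul_mul, Units.inv_mul]

theorem rank_sh_conj (x g : GL (Fin n) F) (a : F) :
    (sh (g⁻¹ * x * g) a).rank = (sh x a).rank := by
  rw [sh_conj, Matrix.rank_mul_eq_left_of_isUnit_det _ _ (Matrix.isUnits_det_units g),
    Matrix.rank_mul_eq_right_of_isUnit_det _ _ (Matrix.isUnits_det_units g⁻¹)]

end

/-- Package [RANK] of project QSim. -/
theorem pkgRank : PkgRank.{u} := by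
  intro F _ n Q x hQ hx
  obtain ⟨g, -, c, hc⟩ := hx
  refine ⟨(c : F), c.ne_zero, fun a ha => ?_⟩
  have hsim := gramMat_sim hQ.polar_bilinear hc
  have h := rank_sim_aux (gramMat_det_isUnit hQ) (Matrix.isUnits_det_units (g⁻¹ * x * g)) ha hsim
  have e1 := rank_sh_conj x g a
  have e2 := rank_sh_conj x g ((c : F) / a)
  unfold sh at e1 e2
  unfold sh
  rw [← e1, ← e2]
  exact h

end Cfsg.Agent.Lib.Helper94.QSim
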