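import Mathlib
import Cfsg.Agent.Lib.Helper58.QSim.Defs
import Cfsg.Agent.Lib.Helper94.QSim.Rank

/-!
# QSim package [ISOCOP]

An isometry `y` of a nondegenerate quadratic form with `f(y)(y - 1) = 0`, `f` irreducible of
degree `≥ 2` and coprime to its reciprocal, is the identity.
-/

set_option autoImplicit false
open scoped MatrixGroups Matrix

namespace Cfsg.Agent.Lib.Helper94.QSim

open Cfsg.Agent.Lib.Helper58.QSim

universe u

section
variable {F : Type u} [Field F]

theorem commute_aeval' {A : Type*} [Ring A] [Algebra F A] {a b : A} (h : Commute a b)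
    (p : Polynomial F) : Commute a (Polynomial.aeval b p) :=
  Algebra.commute_of_mem_adjoin_singleton_of_commute
    (Polynomial.aeval_mem_adjoin_singleton _ _) h

theorem pow_mul_pow_inv {A : Type*} [Ring A] {y z : A} (hyz : y * z = 1) (j : ℕ) :
    y ^ j * z ^ j = 1 := by
  induction j with
  | zero => simp
  | succ j ih => rw [pow_succ, pow_succ', mul_assoc, ← mul_assoc y, hyz, one_mul, ih]

/-- Evaluating the reverse polynomial at an invertible element. -/
theorem aeval_reverse_eq {A : Type*} [Ring A] [Algebra F A] {y z : A} (hyz : y * z = 1)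
    (f : Polynomial F) :
    Polynomial.aeval y f.reverse = y ^ f.natDegree * Polynomial.aeval z f := by
  rw [Polynomial.aeval_eq_sum_range' (Nat.lt_succ_of_le (Polynomial.reverse_natDegree_le f)) y,
    Polynomial.aeval_eq_sum_range z, Finset.mul_sum,
    ← Finset.sum_range_reflect _ (f.natDegree + 1)]
  refine Finset.sum_congr rfl fun j hj => ?_
  have hj' : j ≤ f.natDegree := Nat.lt_succ_iff.mp (Finset.mem_range.mp hj)
  rw [Polynomial.coeff_reverse, Nat.add_sub_cancel,
    Polynomial.revAt_le (Nat.sub_le _ _), Nat.sub_sub_self hj', mul_smul_comm]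
  congr 1
  have h1 : y ^ f.natDegree = y ^ (f.natDegree - j) * y ^ j := by
    rw [← pow_add, Nat.sub_add_cancel hj']
  rw [h1, mul_assoc, pow_mul_pow_inv hyz, mul_one]

variable {n : ℕ}

theorem transpose_aeval_mul {G Y Z : Matrix (Fin n) (Fin n) F} (h : Yᵀ * G = G * Z)
    (P : Polynomial F) :
    (Polynomial.aeval Y P)ᵀ * G = G * Polynomial.aeval Z P := by
  rw [Polynomial.aeval_eq_sum_range, Polynomial.aeval_eq_sum_range, Matrix.transpose_sum,
    Finset.sum_mul, Finset.mul_sum]
  refine Finset.sum_congr rfl fun i _ => ?_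
  rw [Matrix.transpose_smul, Matrix.transpose_pow, Matrix.smul_mul, Matrix.mul_smul]
  congr 1
  have hs : SemiconjBy G Z Yᵀ := h.symm
  exact (hs.pow_right i).eq.symm

theorem eval_one_ne_zero {f : Polynomial F} (hf : Irreducible f) (hd : 2 ≤ f.natDegree) :
    f.eval 1 ≠ 0 := by
  intro h0
  have h1 := Polynomial.degree_eq_one_of_irreducible_of_root hf h0
  have h2 : f.natDegree = 1 := Polynomial.natDegree_eq_of_degree_eq_some h1
  omega

/-- The matrix core of [ISOCOP]. -/
theorem isoCop_core {G Y Z : Matrix (Fin n) (Fin n) F} (hG : IsUnit G.det)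
    (hYZ : Y * Z = 1) (hZY : Z * Y = 1) (hiso : Yᵀ * G * Y = G) {f : Polynomial F}
    (hf : Irreducible f) (hd : 2 ≤ f.natDegree) (hcop : IsCoprime f f.reverse)
    (hfN : Polynomial.aeval Y f * (Y - 1) = 0) : Y - 1 = 0 := by
  set N : Matrix (Fin n) (Fin n) F := Y - 1 with hN
  -- `Yᵀ G = G Z`
  have h2 : Yᵀ * G = G * Z := by
    calc Yᵀ * G = Yᵀ * G * (Y * Z) := by rw [hYZ, Matrix.mul_one]
      _ = (Yᵀ * G * Y) * Z := by rw [Matrix.mul_assoc, Matrix.mul_assoc, Matrix.mul_assoc]
      _ = G * Z := by rw [hiso]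
  have h3 := transpose_aeval_mul h2
  have cYZ : Commute Y Z := by rw [Commute, SemiconjBy, hYZ, hZY]
  have cNY : Commute N Y := by
    rw [hN]; exact (Commute.refl Y).sub_left (Commute.one_left Y)
  have cNZ : Commute N Z := by
    rw [hN]; exact cYZ.sub_left (Commute.one_left Z)
  set M : Matrix (Fin n) (Fin n) F := Polynomial.aeval Z f * N with hM
  -- Step A
  have hA : Nᵀ * G * M = 0 := by
    rw [hM]
    calc Nᵀ * G * (Polynomial.aeval Z f * N)
        = Nᵀ * (G * Polynomial.aeval Z f) * N := by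
          simp only [Matrix.mul_assoc]
      _ = Nᵀ * ((Polynomial.aeval Y f)ᵀ * G) * N := by rw [h3]
      _ = (Polynomial.aeval Y f * N)ᵀ * G * N := by
          rw [Matrix.transpose_mul]; simp only [Matrix.mul_assoc]
      _ = 0 := by rw [hfN, Matrix.transpose_zero, Matrix.zero_mul, Matrix.zero_mul]
  -- Step B
  have hB : Nᵀ * G = -(G * Z * N) := by
    rw [hN, Matrix.transpose_sub, Matrix.transpose_one, Matrix.sub_mul, h2, Matrix.one_mul,
      Matrix.mul_sub, Matrix.mul_one, Matrix.mul_assoc G Z Y, hZY, Matrix.mul_one]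
    abel
  -- Step C
  have hC : N * M = 0 := by
    have e1 : G * (Z * (N * M)) = 0 := by
      have := hA
      rw [hB, Matrix.neg_mul, neg_eq_zero] at this
      rw [← this]; simp only [Matrix.mul_assoc]
    have e2 : Z * (N * M) = 0 := by
      have := congrArg (fun T => G⁻¹ * T) e1
      simp only [Matrix.mul_zero] at this
      rwa [← Matrix.mul_assoc, Matrix.nonsing_inv_mul G hG, Matrix.one_mul] at this
    calc N * M = (Y * Z) * (N * M) := by rw [hYZ, Matrix.one_mul]
      _ = Y * (Z * (N * M)) := by rw [Matrix.mul_assoc]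
      _ = 0 := by rw [e2, Matrix.mul_zero]
  -- Step E
  have hE : Polynomial.aeval Y f * M = 0 := by
    have c1 : Commute N (Polynomial.aeval Z f) := commute_aeval' cNZ f
    rw [hM, ← c1.eq, ← Matrix.mul_assoc, hfN, Matrix.zero_mul]
  -- Step F
  have hF : Polynomial.aeval Y f * M = f.eval 1 • M := by
    obtain ⟨q, hq⟩ := Polynomial.X_sub_C_dvd_sub_C_eval (a := (1 : F)) (p := f)
    have e1 := congrArg (Polynomial.aeval Y) hq
    rw [mul_comm, map_mul, map_sub, map_sub, Polynomial.aeval_X, Polynomial.aeval_C,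
      Polynomial.aeval_C, map_one, ← hN] at e1
    have e2 : Polynomial.aeval Y f
        = Polynomial.aeval Y q * N + (algebraMap F (Matrix (Fin n) (Fin n) F)) (f.eval 1) := by
      rw [← e1]; abel
    rw [e2, Matrix.add_mul, Matrix.mul_assoc, hC, Matrix.mul_zero, zero_add,
      Algebra.algebraMap_eq_smul_one, Matrix.smul_mul, Matrix.one_mul]
  -- Step H
  have hH : M = 0 := by
    rw [hE] at hF
    rcases smul_eq_zero.mp hF.symm with h | h
    · exact absurd h (eval_one_ne_zero hf hd)
    · exact h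
  -- Step I
  have hI : Polynomial.aeval Y f.reverse * N = 0 := by
    rw [aeval_reverse_eq hYZ, Matrix.mul_assoc, ← hM, hH, Matrix.mul_zero]
  -- Step J
  obtain ⟨a, b, hab⟩ := hcop
  have e := congrArg (Polynomial.aeval Y) hab
  rw [map_add, map_mul, map_mul, map_one] at e
  calc N = 1 * N := (Matrix.one_mul N).symm
    _ = (Polynomial.aeval Y a * Polynomial.aeval Y f
          + Polynomial.aeval Y b * Polynomial.aeval Y f.reverse) * N := by rw [e]
    _ = 0 := by
      rw [Matrix.add_mul, Matrix.mul_assoc, Matrix.mul_assoc, hfN, hI, Matrix.mul_zero,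
        Matrix.mul_zero, add_zero]

end

/-- Package [ISOCOP] of project QSim. -/
theorem pkgIsoCop : PkgIsoCop.{u} := by
  intro F _ n Q y f hQ hiso hf hd hcop hfy
  have hc : ∀ v, Q ((y : Matrix (Fin n) (Fin n) F) *ᵥ v) = (1 : F) * Q v := by
    intro v; rw [one_mul]; exact hiso v
  have hsim := gramMat_sim hQ.polar_bilinear hc
  rw [one_smul] at hsim
  have hfN : Polynomial.aeval (y : Matrix (Fin n) (Fin n) F) f
      * ((y : Matrix (Fin n) (Fin n) F) - 1) = 0 := by
    have := hfy
    unfold pv sh at this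
    rwa [one_smul] at this
  have h := isoCop_core (gramMat_det_isUnit hQ) (Units.mul_inv y) (Units.inv_mul y) hsim hf hd
    hcop hfN
  apply Units.ext
  rw [Units.val_one]
  exact sub_eq_zero.mp h

end Cfsg.Agent.Lib.Helper94.QSim
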